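-- Team project BRA (S4484): package [Mat] (helper65).
import Mathlib
import Cfsg.Agent.Lib.Helper95.BRA.Defs
import Cfsg.Agent.Lib.Helper74.FrobSchur
import Cfsg.Agent.Lib.Helper80.CharOps
import Cfsg.Agent.Lib.Helper80.Orthogonality

set_option autoImplicit false
open scoped Matrix ComplexConjugate

namespace Cfsg.Agent.Lib.Helper65.BRA
open Cfsg Cfsg.Agent.Lib.Helper95.BRA Cfsg.Agent.Lib.Helper74.Jordan

universe u

/-- [Mat] a unitary matrix representation affording a nonprincipal irreducible character has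
no nonzero fixed vector. -/
theorem pkgMat : PkgMat.{u} := by
  intro G _ _ χ hχ hne
  classical
  haveI := Fintype.ofFinite G
  have hχ0 := hχ
  obtain ⟨n, ρ, hirr, hρ⟩ := hχ
  have hM : ∀ g, χ g =
      (Cfsg.Agent.Lib.Helper74.matHom ρ (Pi.basisFun ℂ (Fin n)) g).trace := fun g => by
    rw [← hρ]; exact Cfsg.Agent.Lib.Helper74.character_eq_trace ρ (Pi.basisFun ℂ (Fin n)) g
  obtain ⟨U, hUu, hUtr⟩ :=
    exists_unitary_hom (Cfsg.Agent.Lib.Helper74.matHom ρ (Pi.basisFun ℂ (Fin n)))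
  have hχU : ∀ g, (U g).trace = χ g := fun g => by rw [hM, hUtr]
  refine ⟨n, U, hUu, hχU, ?_⟩
  have hc : (Nat.card G : ℂ) ≠ 0 := by exact_mod_cast (Nat.card_pos (α := G)).ne'
  -- the sum of the values of `χ` vanishes
  have hsum : ∑ g : G, χ g = 0 := by
    have h1 := Cfsg.Agent.Lib.Helper80.classInner_irr_fun hχ0
      (Cfsg.Agent.Lib.Helper80.isIrrCharacter_one (G := G))
    rw [if_neg hne] at h1
    unfold Cfsg.classInner at h1
    have h2 : ∑ g : G, χ g * conj (1 : ℂ) = 0 := by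
      rcases mul_eq_zero.1 h1 with h | h
      · exact absurd (inv_eq_zero.1 h) hc
      · exact h
    simpa using h2
  set E : Matrix (Fin n) (Fin n) ℂ := ∑ g : G, U g with hE
  have hEtr : E.trace = 0 := by
    rw [hE, Matrix.trace_sum]
    simp only [hχU]
    exact hsum
  have hinv : ∀ g, (U g)ᴴ = U g⁻¹ := by
    intro g
    have h2 : U g * U g⁻¹ = 1 := by rw [← map_mul, mul_inv_cancel, map_one]
    calc (U g)ᴴ = (U g)ᴴ * (U g * U g⁻¹) := by rw [h2, Matrix.mul_one]
      _ = ((U g)ᴴ * U g) * U g⁻¹ := by rw [Matrix.mul_assoc]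
      _ = U g⁻¹ := by rw [hUu, Matrix.one_mul]
  have hEH : Eᴴ = E := by
    rw [hE, Matrix.conjTranspose_sum]
    simp only [hinv]
    exact Fintype.sum_equiv (Equiv.inv G) _ _ (fun g => rfl)
  have hUE : ∀ h, U h * E = E := by
    intro h
    rw [hE, Finset.mul_sum]
    simp only [← map_mul]
    exact Fintype.sum_equiv (Equiv.mulLeft h) _ _ (fun g => rfl)
  have hEE : E * E = (Nat.card G : ℂ) • E := by
    have h1 : E * E = ∑ h : G, U h * E := by
      conv_lhs => rw [hE, Finset.sum_mul]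
    rw [h1]
    simp only [hUE]
    rw [Finset.sum_const, Finset.card_univ, Nat.card_eq_fintype_card, Nat.cast_smul_eq_nsmul]
  have hfn : fn E = 0 := by
    apply Complex.ofReal_injective
    rw [← trace_conjTranspose_mul_self, hEH, hEE, Matrix.trace_smul, hEtr]
    simp
  have hE0 : E = 0 := fn_eq_zero.1 hfn
  intro v hv
  have h3 : E *ᵥ v = (Nat.card G : ℂ) • v := by
    have h4 : E *ᵥ v = ∑ g : G, U g *ᵥ v := by
      rw [hE]
      exact Matrix.sum_mulVec _ _ _
    rw [h4]
    simp only [hv]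
    rw [Finset.sum_const, Finset.card_univ, Nat.card_eq_fintype_card, Nat.cast_smul_eq_nsmul]
  rw [hE0, Matrix.zero_mulVec] at h3
  exact (smul_eq_zero.1 h3.symm).resolve_left hc

end Cfsg.Agent.Lib.Helper65.BRA
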